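import Mathlib
import Cfsg.Agent.Lib.Helper9.BG1356.Defs

/-!
Package PK-N of the S1356 team project (helper9): a subgroup `C ≤ C_M(M_F)` whose image in
`M / M_F` is nilpotent is nilpotent.
-/

set_option autoImplicit false

namespace Cfsg.Agent.Lib.Helper72.BG1356

open Cfsg

universe u

theorem pkgN : Cfsg.Agent.Lib.Helper9.BG1356.PkgN.{u} := by
  intro G _ _ M C hCM hCcent hnil
  -- the homomorphism `C → image of C in M / M_F`
  let T : Subgroup (↥M ⧸ fittingHall ↥M) :=
    (C.subgroupOf M).map (QuotientGroup.mk' (fittingHall ↥M))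
  have hmem : ∀ c : ↥C, (QuotientGroup.mk' (fittingHall ↥M)) ⟨c.1, hCM c.2⟩ ∈ T := by
    intro c
    refine Subgroup.mem_map.mpr ⟨⟨c.1, hCM c.2⟩, ?_, rfl⟩
    rw [Subgroup.mem_subgroupOf]
    exact c.2
  let f : ↥C →* ↥T :=
    { toFun := fun c => ⟨(QuotientGroup.mk' (fittingHall ↥M)) ⟨c.1, hCM c.2⟩, hmem c⟩
      map_one' := by
        apply Subtype.ext
        show (QuotientGroup.mk' (fittingHall ↥M)) ⟨(1 : ↥C).1, hCM (1 : ↥C).2⟩ = 1
        have : (⟨(1 : ↥C).1, hCM (1 : ↥C).2⟩ : ↥M) = 1 := Subtype.ext rfl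
        rw [this, map_one]
      map_mul' := by
        intro a b
        apply Subtype.ext
        show (QuotientGroup.mk' (fittingHall ↥M)) ⟨(a * b).1, hCM (a * b).2⟩ =
          (QuotientGroup.mk' (fittingHall ↥M)) ⟨a.1, hCM a.2⟩ *
            (QuotientGroup.mk' (fittingHall ↥M)) ⟨b.1, hCM b.2⟩
        rw [← map_mul]
        rfl }
  have hT : Group.IsNilpotent ↥T := hnil
  apply @Subgroup.isNilpotent_of_ker_le_center _ _ _ _ f ?_ hT
  intro c hc
  rw [MonoidHom.mem_ker] at hc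
  have hc' : (QuotientGroup.mk' (fittingHall ↥M)) ⟨c.1, hCM c.2⟩ = 1 := by
    have := congrArg Subtype.val hc
    exact this
  rw [QuotientGroup.mk'_apply, QuotientGroup.eq_one_iff] at hc'
  -- so `c ∈ M_F`, which is centralized by `C`
  have hcF : c.1 ∈ fittingHallOf M := by
    refine Subgroup.mem_map.mpr ⟨⟨c.1, hCM c.2⟩, hc', rfl⟩
  rw [Subgroup.mem_center_iff]
  intro d
  apply Subtype.ext
  have hd := hCcent d.2
  rw [Subgroup.mem_centralizer_iff] at hd
  have := hd c.1 hcF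
  show d.1 * c.1 = c.1 * d.1
  exact this.symm

end Cfsg.Agent.Lib.Helper72.BG1356
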